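import Mathlib
import Cfsg.Agent.Base
import Cfsg.Agent.Lib.Lin35.TwoP
import Cfsg.Agent.Lib.Block.HeightBF
import Cfsg.Agent.Lib.Block.Apps

/-! Simple groups of order `p ^ a * q ^ b * g₀`. -/

set_option autoImplicit false
set_option linter.style.haveILetI false

namespace H35L
open Cfsg Real

variable {G : Type*} [Group G] {p : ℕ}

theorem norm_sub_lt_one_of_arg {z w : ℂ} (hz : ‖z‖ = 1) (hw : ‖w‖ = 1)
    (h : ⌈(Complex.arg z + π) / (π / 3)⌉ = ⌈(Complex.arg w + π) / (π / 3)⌉) : ‖z - w‖ < 1 := by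
  have hpi := pi_pos
  have h1 : |(Complex.arg z + π) / (π / 3) - (Complex.arg w + π) / (π / 3)| < 1 := by
    have a1 := Int.le_ceil ((Complex.arg z + π) / (π / 3))
    have a2 := Int.ceil_lt_add_one ((Complex.arg z + π) / (π / 3))
    have a3 := Int.le_ceil ((Complex.arg w + π) / (π / 3))
    have a4 := Int.ceil_lt_add_one ((Complex.arg w + π) / (π / 3))
    rw [h] at a1 a2
    rw [abs_lt]; constructor <;> linarith
  have h2 : |(Complex.arg z - Complex.arg w) / 2| < π / 6 := by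
    rw [← sub_div, abs_div, abs_of_pos (by positivity : 0 < π / 3),
      div_lt_one (by positivity), add_sub_add_right_eq_sub] at h1
    rw [abs_div, abs_two]
    linarith
  have h3 : z - w = (Complex.exp (Complex.I * (Complex.arg z - Complex.arg w : ℝ)) - 1) * w := by
    have e1 := Complex.norm_mul_exp_arg_mul_I z
    have e2 := Complex.norm_mul_exp_arg_mul_I w
    rw [hz, Complex.ofReal_one, one_mul] at e1
    rw [hw, Complex.ofReal_one, one_mul] at e2
    rw [sub_mul, one_mul]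
    congr 1
    conv_rhs => rhs; rw [← e2]
    rw [← Complex.exp_add]
    conv_lhs => rw [← e1]
    congr 1
    push_cast; ring
  rw [h3, norm_mul, hw, mul_one, Complex.norm_exp_I_mul_ofReal_sub_one, norm_mul, norm_eq_abs,
    norm_eq_abs, abs_two, abs_sin_eq_sin_abs_of_abs_le_pi (by linarith)]
  have := sin_lt_sin_of_lt_of_le_pi_div_two (by linarith [abs_nonneg ((z.arg - w.arg) / 2)])
    (by linarith) h2
  rw [sin_pi_div_six] at this
  linarith

theorem ceil_arg_mem_six (z : ℂ) : ⌈(Complex.arg z + π) / (π / 3)⌉ ∈ Finset.Icc (1 : ℤ) 6 := by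
  have hpi := pi_pos
  have h1 := Complex.neg_pi_lt_arg z
  have h2 := Complex.arg_le_pi z
  rw [Finset.mem_Icc, Int.one_le_ceil_iff, Int.ceil_le, div_le_iff₀ (by positivity)]
  exact ⟨div_pos (by linarith) (by positivity), by push_cast; linarith⟩

theorem exists_pow_close (S : Finset ℂ) (hS : ∀ μ ∈ S, ‖μ‖ = 1) {ω : ℂ} (hω : ω ∈ S)
    (h : 6 ^ (S.card - 1) < p) : ∃ k, 0 < k ∧ k < p ∧ ∀ μ ∈ S, ‖μ ^ k - ω ^ k‖ < 1 := by
  classical
  let f : Fin p → S.erase ω → Finset.Icc (1 : ℤ) 6 := fun k μ =>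
    ⟨_, ceil_arg_mem_six ((μ / ω) ^ (k : ℕ))⟩
  have hω1 := hS ω hω
  have hω0 : ω ≠ 0 := by rintro rfl; simp at hω1
  have key : ∀ k l : Fin p, k < l → f k = f l →
      ∃ k, 0 < k ∧ k < p ∧ ∀ μ ∈ S, ‖μ ^ k - ω ^ k‖ < 1 := fun k l hkl e => by
    obtain ⟨j, hj⟩ := Nat.exists_eq_add_of_lt (show (k : ℕ) < l from hkl)
    refine ⟨j + 1, j.succ_pos, by omega, fun μ hμ => ?_⟩
    by_cases hμω : μ = ω
    · simp [hμω]
    have h1 : ∀ n : ℕ, ‖(μ / ω) ^ n‖ = 1 := fun n => by simp [hS μ hμ, hω1]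
    have := norm_sub_lt_one_of_arg (h1 l) (h1 k)
      (congrArg Subtype.val (congrFun e ⟨μ, Finset.mem_erase.2 ⟨hμω, hμ⟩⟩)).symm
    have e2 : (μ / ω) ^ (l : ℕ) - (μ / ω) ^ (k : ℕ) =
        (μ / ω) ^ (k : ℕ) * (μ ^ (j + 1) - ω ^ (j + 1)) / ω ^ (j + 1) := by
      rw [hj, add_assoc, pow_add, div_pow μ ω (j + 1)]
      field_simp
    rwa [e2, norm_div, norm_mul, h1, norm_pow, hω1, one_pow, one_mul, div_one] at this
  obtain ⟨k, l, hkl, e⟩ := Fintype.exists_ne_map_eq_of_card_lt f (by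
    simpa [Finset.card_erase_of_mem hω] using h)
  rcases lt_or_gt_of_ne hkl with h | h
  · exact key k l h e
  · exact key l k h e.symm

theorem exists_principal_not_dvd [Finite G] [hp : Fact p.Prime] {M : Ideal AlgInt}
    (hM : IsPModular p M) {x : G} (hx : p ∣ orderOf x) {q : ℕ} (hq : q.Prime) :
    ∃ χ ∈ principalBlock M G, (χ : G → ℂ) ≠ (fun _ => 1) ∧ ∀ n : ℕ, (χ : G → ℂ) 1 = n → ¬ q ∣ n := by
  classical
  haveI := hM.2.1
  haveI := Fact.mk hq
  obtain ⟨M', hM'⟩ := H33.exists_isPModular q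
  haveI := hM'.2.1
  by_contra hc
  push Not at hc
  have h0 := H84.sum_deg_mul_eq_zero hM (H84.isPBlock_principal (M := M) (G := G)) hx
  let e : IrrCharacter G := ⟨fun _ => 1, H6.isIrrCharacter_one⟩
  have he : e ∈ H84.bset (principalBlock M G) := H84.mem_bset.2 fun g => by
    rw [sub_self]; exact H33.memLocalIdeal_zero
  rw [← Finset.add_sum_erase _ _ he, add_eq_zero_iff_eq_neg] at h0
  refine H33.not_memLocalIdeal_one (M := M') ?_
  rw [show (1 : ℂ) = (e : G → ℂ) 1 * (e : G → ℂ) x from (one_mul 1).symm, h0]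
  refine H33.memLocalIdeal_neg (H33.memLocalIdeal_sum _ fun χ hχ => ?_)
  obtain ⟨h1, h2⟩ := Finset.mem_erase.1 hχ
  obtain ⟨n, hn, hqn⟩ := hc χ (H84.mem_bset.1 h2) fun h => h1 (Subtype.ext h)
  rw [hn]
  exact H33.memLocalIdeal_mul_right ((H33.memLocalIdeal_natCast_iff hM' n).2 hqn)
    (H33.mem_O_of_isIntegral _ (H33.irr_isIntegral χ x))

/-- In the principal block the multiplicities of the eigenvalues of a `p`-central element of
order `p` are divisible by the `p`-part of the degree. -/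
theorem ordProj_le_card [Finite G] [hp : Fact p.Prime] {M : Ideal AlgInt} (hM : IsPModular p M)
    {χ : IrrCharacter G} (hχ : χ ∈ principalBlock M G) {x : G}
    (hx : ¬ p ∣ (Subgroup.centralizer {x}).index) {n : ℕ} (hn0 : n ≠ 0) (hn : (χ : G → ℂ) 1 = n)
    {a : Fin n → ℂ} (ha : ∀ i, a i ^ p = 1) (h : ∀ j, (χ : G → ℂ) (x ^ j) = ∑ i, a i ^ j)
    (i : Fin n) [DecidableEq ℂ] :
    ordProj[p] n ≤ (Finset.univ.filter fun j => a j = a i).card := by
  haveI := hM.2.1
  have h1 : ∀ k : ℕ, (χ : G → ℂ) (x ^ k) / n ∈ H33.O M ∧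
      H33.red M ((χ : G → ℂ) (x ^ k) / n) = 1 := fun k => by
    have h2 : ¬ p ∣ (Subgroup.centralizer {x ^ k}).index := fun h => hx (h.trans
      (Subgroup.index_dvd_of_le fun g hg => Subgroup.mem_centralizer_singleton_iff.2
        (Commute.pow_right (Subgroup.mem_centralizer_singleton_iff.1 hg) k)))
    have h3 := H33.memLocalIdeal_mul_left (H33.natCast_inv_mem_O hM h2)
      (H33.memLocalIdeal_sub_comm (hχ (x ^ k)))
    have h4 : ((Subgroup.centralizer {x ^ k}).index : ℂ) ≠ 0 :=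
      Nat.cast_ne_zero.2 Subgroup.FiniteIndex.index_ne_zero
    rw [centralChar, centralChar, hn, mul_div_assoc, mul_div_assoc, ← mul_sub,
      inv_mul_cancel_left₀ h4, div_one] at h3
    simpa using H33.mem_O_and_red_eq_of_sub h3 (one_mem _)
  have hi : ∀ k : ℕ, (a i)⁻¹ ^ k ∈ H33.O M ∧ H33.red M ((a i)⁻¹ ^ k) = 1 := fun k => by
    have : ((a i)⁻¹ ^ k) ^ p = 1 := by rw [pow_right_comm, inv_pow, ha]; simp
    exact ⟨H33.mem_O_of_pow_eq_one M hp.out.ne_zero this,
      H33.red_eq_one_of_pow_prime_pow hM (k := 1) (by rwa [pow_one])⟩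
  have h5 : MemLocalIdeal M (emult χ x p (a i) / n) := by
    rw [emult, Finset.sum_div]
    simp only [mul_div_right_comm]
    have hm := fun k (_ : k ∈ Finset.range p) => mul_mem (h1 k).1 (hi k).1
    rw [H33.memLocalIdeal_iff_red (sum_mem hm), H33.red_sum _ hm]
    simp only [H33.red_mul (h1 _).1 (hi _).1, (h1 _).2, (hi _).2]
    simpa using (H33.natCast_F_eq_zero_iff hM p).2 dvd_rfl
  rw [emult_eq hp.out.ne_zero ha h (ha i)] at h5
  set m := (Finset.univ.filter fun j => a j = a i).card with hm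
  have hm0 : m ≠ 0 := Finset.card_ne_zero.2 ⟨i, by simp⟩
  have h6 : n.factorization p < (p * m).factorization p := by
    rw [← H33.memLocalIdeal_natCast_div_iff hM (mul_ne_zero hp.out.ne_zero hm0) hn0]
    convert h5 using 2
    push_cast
    congr 2
    convert hm
  rw [Nat.factorization_mul hp.out.ne_zero hm0, Finsupp.add_apply, hp.out.factorization_self] at h6
  exact Nat.le_of_dvd hm0.bot_lt ((hp.out.pow_dvd_iff_le_factorization hm0).2 (by omega))

theorem cofactor_bound [Finite G] [IsSimpleGroup G] {q a b g₀ : ℕ} (hp : p.Prime) (hq : q.Prime)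
    (ha : 0 < a) (hg : Nat.card G = p ^ a * q ^ b * g₀) (hne : Nat.card G ≠ p) :
    p < 6 ^ (g₀ - 1) := by
  classical
  haveI := Fact.mk hp
  have hpG : p ∣ Nat.card G := hg ▸ ((dvd_pow_self p ha.ne').mul_right _).mul_right _
  have hZ : Subgroup.center G = ⊥ := by
    refine (IsSimpleGroup.eq_bot_or_eq_top_of_normal _ inferInstance).resolve_right fun h => ?_
    letI : CommGroup G := Group.commGroupOfCenterEqTop h
    exact hne ((Nat.prime_dvd_prime_iff_eq hp IsSimpleGroup.prime_card).1 hpG).symm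
  obtain ⟨P⟩ : Nonempty (Sylow p G) := inferInstance
  haveI := (Subgroup.nontrivial_iff_ne_bot _).2 (P.ne_bot_of_dvd_card hpG)
  obtain ⟨⟨x, hxP⟩, -, hxc, hxo⟩ := H5.exists_mem_center_orderOf_eq P.isPGroup' ⊤ top_ne_bot
  rw [← Subgroup.orderOf_coe] at hxo
  replace hxo : orderOf x = p := hxo
  have hxp : x ^ p = 1 := hxo ▸ pow_orderOf_eq_one x
  have hx : ¬ p ∣ (Subgroup.centralizer {x}).index := fun h => P.not_dvd_index (h.trans
    (Subgroup.index_dvd_of_le fun g hg => Subgroup.mem_centralizer_singleton_iff.2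
      (congrArg Subtype.val (Subgroup.mem_center_iff.1 hxc ⟨g, hg⟩))))
  obtain ⟨M, hM⟩ := H33.exists_isPModular p
  obtain ⟨χ, hχ, hχ1, hqn⟩ := exists_principal_not_dvd hM (hxo ▸ dvd_rfl : p ∣ orderOf x) hq
  have hχc := H6.irr_isCharacter χ.2
  have hf : ∀ g, (χ : G → ℂ) g = (χ : G → ℂ) 1 → g = 1 := fun g => H6.eq_one_of_simple χ.2 hχ1
  obtain ⟨n, c, hn, hc, h⟩ := H6.char_pow_eq_sum hχc hp.ne_zero hxp
  obtain ⟨n', hn0, hn', hnd⟩ := H6.irr_one_dvd_card χ.2
  obtain rfl : n = n' := by exact_mod_cast hn.symm.trans hn'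
  set S := Finset.univ.image c with hS
  have hcard : S.card ≤ g₀ := by
    have h1 : S.card * ordProj[p] n ≤ n := by
      conv_rhs => rw [← Fintype.card_fin n, ← Finset.card_univ, Finset.card_eq_sum_card_image c]
      rw [← smul_eq_mul]
      refine Finset.card_nsmul_le_sum _ _ _ fun μ hμ => ?_
      obtain ⟨i, -, rfl⟩ := Finset.mem_image.1 hμ
      exact ordProj_le_card hM hχ hx hn0.ne' hn hc h i
    have h2 : ordCompl[p] n ∣ g₀ := by
      refine Nat.Coprime.dvd_of_dvd_mul_left (Nat.Coprime.mul_right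
        ((Nat.coprime_ordCompl hp hn0.ne').symm.pow_right a) (Nat.Coprime.pow_right b ?_))
        (hg ▸ (Nat.ordCompl_dvd n p).trans hnd)
      exact ((Nat.Prime.coprime_iff_not_dvd hq).2 fun h =>
        hqn n hn (h.trans (Nat.ordCompl_dvd n p))).symm
    have h3 : 0 < g₀ := Nat.pos_of_ne_zero fun h => Nat.card_pos.ne' (by rw [hg, h, mul_zero])
    exact ((Nat.le_div_iff_mul_le (Nat.ordProj_pos n p)).2 h1).trans (Nat.le_of_dvd h3 h2)
  by_contra hlt
  have h6 : 6 ^ (g₀ - 1) < p := by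
    refine lt_of_le_of_ne (not_lt.1 hlt) fun e => ?_
    have := (e ▸ hp).eq_one_of_pow
    rw [this] at e
    exact absurd (e ▸ hp) (by norm_num)
  have hc1 : ∀ i, ‖c i‖ = 1 := fun i => Complex.norm_eq_one_of_pow_eq_one (hc i) hp.ne_zero
  obtain ⟨k, hk0, hkp, hk⟩ := exists_pow_close S (by simpa [hS] using hc1)
    (Finset.mem_image_of_mem c (Finset.mem_univ ⟨0, hn0⟩))
    ((Nat.pow_le_pow_right (by norm_num) (by omega)).trans_lt h6)
  have hxk : x ^ k ≠ 1 := pow_ne_one_of_lt_orderOf hk0.ne' (hxo ▸ hkp)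
  have hck : ∀ i, (c i ^ k) ^ p = 1 := fun i => by rw [pow_right_comm, hc, one_pow]
  have key : ∀ μ, μ ^ p = 1 → (emult χ (x ^ k) p μ ≠ 0 ↔ ∃ i, c i ^ k = μ) := fun μ hμ =>
    emult_ne_zero_iff hp.ne_zero hck (fun j => by simp only [← pow_mul, h]) hμ
  have htop : Subgroup.normalClosure {x ^ k} = ⊤ :=
    (IsSimpleGroup.eq_bot_or_eq_top_of_normal _ inferInstance).resolve_left fun h =>
      hxk (Subgroup.mem_bot.1 (h ▸ Subgroup.subset_normalClosure rfl))
  have := scalar_of_homog hχc (t := x ^ k) (H31.IsHomog.comp_surjective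
      (Subgroup.normalClosure {x ^ k}).subtype (fun g => ⟨⟨g, htop ▸ trivial⟩, rfl⟩)
      ⟨χ, 1, χ.2, by simp⟩) hp.ne_zero (by rw [pow_right_comm, hxp, one_pow]) (hck ⟨0, hn0⟩)
    (fun μ hμ h => by
      obtain ⟨i, rfl⟩ := (key μ hμ).1 h
      exact hk _ (Finset.mem_image_of_mem c (Finset.mem_univ i)))
    ((key _ (hck _)).2 ⟨_, rfl⟩)
  exact hxk (Subgroup.mem_bot.1 (hZ ▸ mem_center_of_norm_eq hχc hf
    (by rw [this, norm_mul, norm_pow, hc1, one_pow, one_mul])))

end H35L
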