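import Mathlib
import Cfsg.Agent.Base
import Cfsg.Agent.Lib.Lin35.TwoP
import Cfsg.Agent.Lib.Lin35.Schur
import Cfsg.Agent.Lib.SL2.PGL
import Cfsg.Agent.Lib.SL2.Cases

/-! Finite subgroups of `PGL₂` in characteristic zero; primitive linear groups of degree two. -/

set_option autoImplicit false
set_option linter.style.haveILetI false

namespace H35L
open Cfsg H29 MulAction Matrix MatrixGroups

variable {K : Type*} [Field K]

theorem pgl_eq_one_of_sq_eq_det [CharZero K] {g : GL (Fin 2) K} {a : K}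
    (h : a ^ 2 - g.val.trace * a + g.val.det = 0) (hd : a ^ 2 = g.val.det) {n : ℕ}
    (hn : (ProjGenLinGroup.mk g : PGL(2, K)) ^ (n + 1) = 1) :
    (ProjGenLinGroup.mk g : PGL(2, K)) = 1 := by
  have ha : a ≠ 0 := by
    rintro rfl
    exact g.det_ne_zero (by simpa using hd.symm)
  have ht : g.val.trace = 2 * a := mul_right_cancel₀ ha (by linear_combination -h - hd)
  have key : ∀ k : ℕ, g.val ^ (k + 1) = ((k + 1) * a ^ k) • g.val - (k * a ^ (k + 1)) • 1 := by
    intro k
    induction k with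
    | zero => simp
    | succ k ih =>
      rw [pow_succ, ih, sub_mul, smul_mul_assoc, smul_mul_assoc, cayley_two, ht, ← hd, one_mul]
      push_cast
      module
  rw [← map_pow, pgl_mk_eq_one_iff, Units.val_pow_eq_pow_val, key] at hn
  have hc : ((n : K) + 1) * a ^ n ≠ 0 := mul_ne_zero (Nat.cast_add_one_ne_zero n) (pow_ne_zero _ ha)
  rw [pgl_mk_eq_one_iff]
  simpa [hc, Nat.cast_add_one_ne_zero, ha] using hn

theorem exists_pgl_mult (v : Fin 2 → K) (hv : v ≠ 0) :
    ∃ μ : stabilizer PGL(2, K) (Projectivization.mk K v hv : P1 K) →* Kˣ,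
      ∀ γ (g : GL (Fin 2) K) (a : K), ProjGenLinGroup.mk g = γ.1 → g.val *ᵥ v = a • v →
        (μ γ : K) * g.val.det = a ^ 2 := by
  have key : ∀ γ : stabilizer PGL(2, K) (Projectivization.mk K v hv : P1 K), ∃ m : Kˣ,
      ∀ (g : GL (Fin 2) K) (a : K), ProjGenLinGroup.mk g = γ.1 → g.val *ᵥ v = a • v →
        (m : K) * g.val.det = a ^ 2 := by
    rintro ⟨γ, hγ⟩
    induction γ using ProjGenLinGroup.induction_on with | mk g =>
    obtain ⟨a, ha⟩ := (pgl_fix_iff g hv).1 hγ
    have ha0 := eigen_ne_zero hv ha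
    refine ⟨Units.mk0 (a ^ 2 / g.val.det) (div_ne_zero (pow_ne_zero _ ha0) g.det_ne_zero), ?_⟩
    intro g' a' hg' ha'
    obtain ⟨s, hs, e⟩ := pgl_mk_eq_mk_iff.1 hg'.symm
    rw [e, smul_mulVec, ha, smul_smul] at ha'
    have : s * a = a' := smul_left_injective K hv ha'
    have hd := g.det_ne_zero
    rw [e, det_smul, ← this, Fintype.card_fin, Units.val_mk0]
    field_simp
  choose m hm using key
  refine ⟨MonoidHom.mk' m ?_, hm⟩
  rintro ⟨γ, hγ⟩ ⟨δ, hδ⟩
  induction γ using ProjGenLinGroup.induction_on with | mk g =>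
  induction δ using ProjGenLinGroup.induction_on with | mk h =>
  obtain ⟨a, ha⟩ := (pgl_fix_iff g hv).1 hγ
  obtain ⟨b, hb⟩ := (pgl_fix_iff h hv).1 hδ
  have e1 := hm ⟨_, hγ⟩ g a rfl ha
  have e2 := hm ⟨_, hδ⟩ h b rfl hb
  have e3 := hm (⟨_, hγ⟩ * ⟨_, hδ⟩) (g * h) (a * b) (map_mul _ _ _) (by
    rw [Units.val_mul, ← mulVec_mulVec, hb, mulVec_smul, ha, smul_smul, mul_comm])
  rw [Units.val_mul, det_mul] at e3
  apply Units.ext
  apply mul_right_cancel₀ (mul_ne_zero g.det_ne_zero h.det_ne_zero)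
  rw [Units.val_mul, e3]
  linear_combination (-(m ⟨_, hδ⟩ : K) * h.val.det) * e1 - a ^ 2 * e2

theorem mob_charZero [CharZero K] [IsAlgClosed K] (H : Subgroup PGL(2, K)) [Finite H] :
    Mob 1 K H (P1 K) := by
  have hfin : ∀ γ ∈ H, ∃ n, γ ^ (n + 1) = 1 := fun γ hγ => ⟨Nat.card H - 1, by
    rw [Nat.sub_add_cancel Nat.card_pos]
    exact congrArg Subtype.val (pow_card_eq_one' (x := (⟨γ, hγ⟩ : H)))⟩
  refine ⟨fun g x y z h1 h2 h3 hx hy hz => Subtype.ext (pgl_three g x y z h1 h2 h3 hx hy hz),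
    ?_, fun g x y h1 h2 => absurd (by rwa [pow_one] at h2) h1, ?_, fun x => ?_⟩
  · rintro ⟨γ, -⟩
    induction γ using ProjGenLinGroup.induction_on with | mk g =>
    obtain ⟨a, ha⟩ := exists_root_char g.val.trace g.val.det
    obtain ⟨v, hv, h⟩ := exists_eigen ha
    exact ⟨_, (pgl_fix_iff g hv).2 ⟨a, h⟩⟩
  · rintro ⟨γ, hγH⟩ hγ
    induction γ using ProjGenLinGroup.induction_on with | mk g =>
    obtain ⟨a, ha⟩ := exists_root_char g.val.trace g.val.det
    obtain ⟨v, hv, h⟩ := exists_eigen ha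
    obtain ⟨w, hw, h'⟩ := exists_eigen (m := g.val) (a := g.val.trace - a)
      (by linear_combination ha)
    refine ⟨_, _, fun e => hγ ?_, (pgl_fix_iff g hv).2 ⟨a, h⟩, (pgl_fix_iff g hw).2 ⟨_, h'⟩⟩
    obtain ⟨s, rfl⟩ := (Projectivization.mk_eq_mk_iff' K _ _ _ _).1 e
    rw [mulVec_smul, h', smul_comm] at h
    have : g.val.trace - a = a := smul_left_injective K hv h
    obtain ⟨n, hn⟩ := hfin _ hγH
    rw [pow_one]
    exact Subtype.ext (pgl_eq_one_of_sq_eq_det ha (by linear_combination -ha - a * this) hn)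
  · induction x using Projectivization.ind with | _ v hv =>
    obtain ⟨μ, hμ⟩ := exists_pgl_mult v hv
    refine ⟨μ.comp ((H.subtype.comp (Subgroup.subtype _)).codRestrict _ fun g => g.2), ?_,
      fun g h => by rwa [pow_one] at h⟩
    rintro ⟨⟨γ, hγH⟩, hγ⟩
    rw [pow_one]
    refine ⟨fun h => Subtype.ext ?_, fun h => (congrArg _ (Subtype.ext h)).trans (map_one _)⟩
    induction γ using ProjGenLinGroup.induction_on with | mk g =>
    obtain ⟨a, ha⟩ := (pgl_fix_iff g hv).1 hγ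
    obtain ⟨n, hn⟩ := hfin _ hγH
    have := hμ ⟨_, hγ⟩ g a rfl ha
    rw [show μ ⟨_, hγ⟩ = 1 from h, Units.val_one, one_mul] at this
    exact pgl_eq_one_of_sq_eq_det (char_eq_of_eigen hv ha) this.symm hn

/-- Finite subgroups of `PGL₂` in characteristic zero. -/
theorem dickson_charZero [CharZero K] [IsAlgClosed K] (H : Subgroup PGL(2, K)) [Finite H] :
    IsCyclic H ∨ (∃ k, 2 ≤ k ∧ (∃ r : H, orderOf r = k) ∧ Nonempty (H ≃* DihedralGroup k)) ∨
      Nonempty (H ≃* alternatingGroup (Fin 4)) ∨ Nonempty (H ≃* Equiv.Perm (Fin 4)) ∨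
      Nonempty (H ≃* alternatingGroup (Fin 5)) :=
  (mob_charZero H).tame fun x => Subgroup.card_eq_one.2 (eq_bot_iff.2 fun g hg => by
    simpa using hg.2)

variable {G : Type*} [Group G]

theorem exists_pgl_of_degree_two [Finite G] {χ : G → ℂ} (hχ : IsIrrCharacter G χ)
    (hf : ∀ g, χ g = χ 1 → g = 1) (h2 : χ 1 = (2 : ℕ)) :
    ∃ f : G →* PGL(2, ℂ), f.ker = Subgroup.center G := by
  obtain ⟨Ψ, -, hΨ⟩ := H31.exists_unitary_of_char (H6.irr_isCharacter hχ) h2
  refine ⟨ProjGenLinGroup.mk.comp Ψ.toHomUnits, le_antisymm (fun z hz => ?_) fun z hz => ?_⟩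
  · obtain ⟨s, -, hs⟩ := pgl_mk_eq_mk_iff.1 ((map_one _).trans (MonoidHom.mem_ker.1 hz).symm)
    have hs : Ψ z = s • 1 := hs
    refine Subgroup.mem_center_iff.2 fun g => ?_
    rw [← mul_inv_eq_one]
    refine hf _ ?_
    have : Ψ (g * z) = Ψ (z * g) := by simp [hs]
    rw [hΨ, hΨ, map_mul, this, ← map_mul, mul_inv_cancel]
  · obtain ⟨ω, hω⟩ := H87.exists_mul_of_mem_center hχ hz
    have h1 : (Ψ z).trace = ω * 2 := by simpa [hΨ z, h2] using hω 1
    have h3 := hω z
    rw [hΨ, hΨ, map_mul, cayley_two, trace_sub, trace_smul, trace_smul, h1, trace_one,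
      Fintype.card_fin, smul_eq_mul, smul_eq_mul] at h3
    have h4 : ω ^ 2 = (Ψ z).det := by push_cast at h3; linear_combination h3 / 2
    refine pgl_eq_one_of_sq_eq_det (g := Ψ.toHomUnits z) (a := ω) (n := Nat.card G - 1) ?_ h4 ?_
    · change _ - (Ψ z).trace * _ + (Ψ z).det = 0
      rw [h1, ← h4]; ring
    · rw [Nat.sub_add_cancel Nat.card_pos, ← map_pow, ← map_pow, pow_card_eq_one', map_one, map_one]

theorem index_center_of_degree_two [Fintype G] {χ : G → ℂ} (hχ : IsIrrCharacter G χ)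
    (hf : ∀ g, χ g = χ 1 → g = 1) (h2 : χ 1 = (2 : ℕ))
    (hprim : ∀ H : Subgroup G, H ≠ ⊤ → ∀ θ : H → ℂ, IsCharacter H θ → χ ≠ indFun H θ) :
    (Subgroup.center G).index = 12 ∨ (Subgroup.center G).index = 24 ∨
      (Subgroup.center G).index = 60 := by
  classical
  obtain ⟨f, hker⟩ := exists_pgl_of_degree_two hχ hf h2
  haveI : Finite f.range := Finite.of_surjective _ f.rangeRestrict_surjective
  have key : ∀ r : f.range, 2 < (Subgroup.zpowers r).index := fun r => by
    by_contra hlt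
    set A := (Subgroup.zpowers r).comap f.rangeRestrict with hA
    have hi : A.index ≤ 2 := by
      rw [hA, Subgroup.index_comap_of_surjective _ f.rangeRestrict_surjective]; omega
    have hc := (MonoidHom.isMulCommutative_of_isCyclic_of_ker_le_center
      (f.rangeRestrict.subgroupComap _ : A →* _)
      fun z hz => Subgroup.mem_center_iff.2 fun g => Subtype.ext (Subgroup.mem_center_iff.1
        (hker.le (congrArg (fun x => x.1.1) (MonoidHom.mem_ker.1 hz))) g)).is_comm.comm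
    obtain ⟨θ, hθ, hne⟩ := H7.exists_irr_under A
      (H6.char_isClassFunction (H6.irr_isCharacter hχ)) (by rw [h2]; norm_num)
    have h1 : indFun A θ 1 = A.index := by
      rw [H7.indFun_one, H6.irr_one_eq_one_of_comm hc hθ, mul_one]
    have hθc := H7.isCharacter_indFun A (H6.irr_isCharacter hθ)
    have hne' := (H7.inner_indFun_ne_zero_iff A θ
      (H6.char_isClassFunction (H6.irr_isCharacter hχ))).2 hne
    have h3 := H6.irr_one_le_of_inner_ne_zero hθc hχ hne'
    rw [h1, h2, Complex.natCast_re, Complex.natCast_re, Nat.cast_le] at h3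
    have h4 : A.index = 2 := by omega
    exact hprim A (fun h => by simp [h] at h4) θ (H6.irr_isCharacter hθ)
      (H7.eq_of_inner_ne_zero_of_one_eq hθc hχ hne' (by rw [h1, h4, h2])).symm
  rw [← hker, Subgroup.index_ker]
  rcases dickson_charZero f.range with h | ⟨k, hk, ⟨r, hr⟩, ⟨e⟩⟩ | ⟨⟨e⟩⟩ | ⟨⟨e⟩⟩ | ⟨⟨e⟩⟩
  · obtain ⟨r, hr⟩ := IsCyclic.exists_generator (α := f.range)
    have := key r
    rw [(Subgroup.eq_top_iff' _).2 hr] at this
    simp at this
  · have h1 := key r
    have h3 := (Subgroup.zpowers r).index_mul_card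
    rw [Nat.card_zpowers, hr, Nat.card_congr e.toEquiv, DihedralGroup.nat_card] at h3
    nlinarith
  · left
    rw [Nat.card_congr e.toEquiv, nat_card_alternatingGroup]; simp [Nat.factorial]
  · right; left
    rw [Nat.card_congr e.toEquiv, Nat.card_perm]; simp [Nat.factorial]
  · right; right
    rw [Nat.card_congr e.toEquiv, nat_card_alternatingGroup]; simp [Nat.factorial]

end H35L
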