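import Mathlib
import Cfsg.Agent.Base
import Cfsg.Agent.Lib.Lin35.Schur
import Cfsg.Agent.Lib.Deg.FS3
import Cfsg.Agent.Lib.PGroup.Basic
import Cfsg.Agent.Lib.Jordan.Unitary

/-! The order of a `p`-group in terms of the degree and field of a faithful character. -/

set_option autoImplicit false
set_option linter.style.haveILetI false

namespace H35L
open Cfsg
open scoped ComplexConjugate

universe u

variable {G : Type*} [Group G]

theorem index_le_of_map {H : Subgroup G} {β : Type*} [Finite β] (ψ : G → β)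
    (h : ∀ x y, ψ x = ψ y → x⁻¹ * y ∈ H) : H.index ≠ 0 ∧ H.index ≤ Nat.card β := by
  have hi : Function.Injective fun q : G ⧸ H => ψ q.out := fun a b e => by
    rw [← a.out_eq, ← b.out_eq]
    exact QuotientGroup.eq.2 (h _ _ e)
  haveI := Finite.of_injective _ hi
  exact ⟨Subgroup.index_ne_zero_of_finite, Nat.card_le_card_of_injective _ hi⟩

/-- The automorphisms of `ℂ` fixing all values of a function. -/
def gstab {X : Type*} (χ : X → ℂ) : Subgroup (ℂ ≃+* ℂ) where
  carrier := {σ | ∀ g, σ (χ g) = χ g}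
  one_mem' _ := rfl
  mul_mem' {a b} ha hb g := by
    change a (b (χ g)) = χ g
    rw [hb, ha]
  inv_mem' {a} ha g := by
    change a.symm (χ g) = χ g
    rw [RingEquiv.symm_apply_eq, ha]

theorem inv_mul_mem_gstab {X : Type*} {χ : X → ℂ} {σ τ : ℂ ≃+* ℂ} :
    σ⁻¹ * τ ∈ gstab χ ↔ ∀ g, σ (χ g) = τ (χ g) := by
  refine forall_congr' fun g => ?_
  change σ.symm (τ (χ g)) = χ g ↔ _
  rw [RingEquiv.symm_apply_eq, eq_comm]

theorem index_gstab_le {X : Type*} (χ : X → ℂ)
    [FiniteDimensional ℚ (IntermediateField.adjoin ℚ (Set.range χ))] :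
    (gstab χ).index ≠ 0 ∧
      (gstab χ).index ≤ Module.finrank ℚ (IntermediateField.adjoin ℚ (Set.range χ)) := by
  set K := IntermediateField.adjoin ℚ (Set.range χ)
  obtain ⟨h1, h2⟩ := index_le_of_map (H := gstab χ) (β := K →ₐ[ℚ] ℂ)
    (fun σ => ((σ : ℂ →+* ℂ).comp (algebraMap K ℂ)).toRatAlgHom) fun σ τ e => by
      rw [inv_mul_mem_gstab]
      intro g
      exact DFunLike.congr_fun e ⟨χ g, IntermediateField.subset_adjoin _ _ ⟨g, rfl⟩⟩
  exact ⟨h1, h2.trans (card_algHom_le_finrank ℚ K ℂ)⟩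

theorem inner_gal [Fintype G] (σ : ℂ ≃+* ℂ) {α β : G → ℂ} (hα : IsCharacter G α)
    (hβ : IsCharacter G β) :
    classInner (fun g => σ (α g)) (fun g => σ (β g)) = classInner α β := by
  obtain ⟨n, hn⟩ := H6.char_inner_nat hα hβ
  have hβ' := H8.isCharacter_ringHom_comp hβ (σ : ℂ →+* ℂ)
  have : σ (classInner α β) = classInner (fun g => σ (α g)) (fun g => σ (β g)) := by
    rw [H6.classInner_def, H6.classInner_def, map_mul, map_inv₀, map_natCast, map_sum]
    congr 1
    refine Finset.sum_congr rfl fun g _ => ?_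
    rw [map_mul, ← H6.char_inv hβ]
    congr 1
    exact H6.char_inv hβ' g
  rw [← this, hn, map_natCast]

theorem totient_le_index {A : Type*} [Group A] [Finite A] (lam : A →* ℂˣ)
    (hl : Function.Injective lam) (h0 : (gstab fun a => (lam a : ℂ)).index ≠ 0) :
    Nat.totient (Nat.card A) ≤ (gstab fun a => (lam a : ℂ)).index := by
  classical
  haveI : IsCyclic A := isCyclic_of_injective_ringHom ((Units.coeHom ℂ).comp lam)
    (Units.val_injective.comp hl)
  obtain ⟨g, hg⟩ := IsCyclic.exists_ofOrder_eq_natCard (α := A)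
  haveI : (gstab fun a => (lam a : ℂ)).FiniteIndex := ⟨h0⟩
  have hpos : 0 < Nat.card A := Nat.card_pos
  have key : ∀ k : {k // k ∈ (Finset.range (Nat.card A)).filter ((Nat.card A).Coprime ·)},
      ∃ σ : ℂ ≃+* ℂ, ∀ ζ : ℂ, ζ ^ Nat.card A = 1 → σ ζ = ζ ^ (k : ℕ) := fun k =>
    H8.exists_ringEquiv_pow hpos (Finset.mem_filter.1 k.2).2.symm
  choose s hs using key
  have hi : Function.Injective fun k =>
      ((s k : ℂ ≃+* ℂ) : (ℂ ≃+* ℂ) ⧸ gstab fun a => (lam a : ℂ)) := by
    intro k l e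
    have h1 := inv_mul_mem_gstab.1 (QuotientGroup.eq.1 e) g
    have h2 : (lam g : ℂ) ^ Nat.card A = 1 := by
      rw [← Units.val_pow_eq_pow_val, ← map_pow, pow_card_eq_one', map_one, Units.val_one]
    rw [hs k _ h2, hs l _ h2, ← Units.val_pow_eq_pow_val, ← Units.val_pow_eq_pow_val,
      Units.val_inj, ← map_pow, ← map_pow] at h1
    have h3 := (pow_eq_pow_iff_modEq (x := g)).1 (hl h1)
    rw [hg] at h3
    exact Subtype.ext (h3.eq_of_lt_of_lt (Finset.mem_range.1 (Finset.mem_filter.1 k.2).1)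
      (Finset.mem_range.1 (Finset.mem_filter.1 l.2).1))
  have := Nat.card_le_card_of_injective _ hi
  rwa [Nat.card_eq_fintype_card, Fintype.card_coe, ← Nat.totient_eq_card_coprime] at this

theorem index_gstab_hom_le [Finite G] {χ : G → ℂ} (hχ : IsCharacter G χ) {f : ℕ} (hf : χ 1 = f)
    (A : Subgroup G) [Fintype A] (hA : ∀ a b : A, a * b = b * a) (lam : A →* ℂˣ)
    (hne : classInner (fun a : A => χ a) (fun a => (lam a : ℂ)) ≠ 0) (h0 : (gstab χ).index ≠ 0) :
    (gstab fun a => (lam a : ℂ)).index ≠ 0 ∧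
      (gstab fun a => (lam a : ℂ)).index ≤ f * (gstab χ).index := by
  have hχA := H6.isCharacter_restrict A hχ
  obtain ⟨n, l, hl⟩ := H31.exists_sum_hom_of_comm hA hχA
  have hn : n = f := by
    have := hl 1
    simp only [OneMemClass.coe_one, hf, map_one, Units.val_one, Finset.sum_const, Finset.card_univ,
      Fintype.card_fin, nsmul_eq_mul, mul_one, Nat.cast_inj] at this
    exact this.symm
  subst hn
  have key : ∀ σ : gstab χ, ∃ i, ∀ a, (σ : ℂ ≃+* ℂ) (lam a : ℂ) = l i a := by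
    intro σ
    have h1 := inner_gal σ hχA (H6.isCharacter_hom lam)
    have h2 : (fun a : A => (σ : ℂ ≃+* ℂ) (χ a)) = ∑ i, fun a => (l i a : ℂ) := by
      funext a; rw [σ.2, hl]; simp
    rw [h2, H6.classInner_sum_left] at h1
    obtain ⟨i, -, hi⟩ := Finset.exists_ne_zero_of_sum_ne_zero (h1 ▸ hne)
    have := H6.irr_eq_of_inner_ne_zero (H6.isIrrCharacter_hom (l i))
      (H8.isIrrCharacter_ringEquiv_comp (H6.isIrrCharacter_hom lam) σ) hi
    exact ⟨i, fun a => (congrFun this a).symm⟩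
  choose s hs using key
  obtain ⟨h1, h2⟩ := index_le_of_map (H := (gstab fun a => (lam a : ℂ)).subgroupOf (gstab χ)) s
    fun σ τ e => inv_mul_mem_gstab.2 fun a => by rw [hs, hs, e]
  rw [Nat.card_eq_fintype_card, Fintype.card_fin] at h2
  have h3 := Subgroup.relIndex_mul_index
    (inf_le_right : (gstab fun a => (lam a : ℂ)) ⊓ gstab χ ≤ gstab χ)
  rw [Subgroup.inf_relIndex_right] at h3
  have h4 := Subgroup.index_dvd_of_le
    (inf_le_left : (gstab fun a => (lam a : ℂ)) ⊓ gstab χ ≤ _)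
  have h5 : ((gstab fun a => (lam a : ℂ)) ⊓ gstab χ).index ≠ 0 := h3 ▸ mul_ne_zero h1 h0
  refine ⟨ne_zero_of_dvd_ne_zero h5 h4, (Nat.le_of_dvd (Nat.pos_of_ne_zero h5) h4).trans ?_⟩
  rw [← h3]
  exact Nat.mul_le_mul_right _ h2

/-- An automorphism fixing a faithful irreducible character fixes the `p`-th roots of unity. -/
theorem fix_root [Finite G] {p : ℕ} (hp : p.Prime) {χ : G → ℂ} (hχ : IsIrrCharacter G χ)
    (hf : ∀ g, χ g = χ 1 → g = 1) {z : G} (hz : z ∈ Subgroup.center G) (ho : orderOf z = p)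
    {σ : ℂ ≃+* ℂ} (hσ : σ ∈ gstab χ) {ζ : ℂ} (hζ : ζ ^ p = 1) : σ ζ = ζ := by
  haveI := Fact.mk hp
  haveI : NeZero p := ⟨hp.ne_zero⟩
  obtain ⟨ω, hω⟩ := H87.exists_mul_of_mem_center hχ hz
  have h0 := H6.irr_one_ne_zero hχ
  have h1 : ∀ k : ℕ, χ (z ^ k) = ω ^ k * χ 1 := fun k => by
    induction k with
    | zero => simp
    | succ k ih => rw [pow_succ', hω, ih]; ring
  have h2 : ω ^ p = 1 := by
    have := h1 p
    rw [← ho, pow_orderOf_eq_one, ho] at this
    exact mul_right_cancel₀ h0 (by rw [← this, one_mul])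
  have h3 : ω ≠ 1 := by
    rintro rfl
    have := hf z (by simpa using h1 1)
    rw [this, orderOf_one] at ho
    exact hp.one_lt.ne ho
  have h4 : σ ω = ω := by
    have a := hσ z
    have b := hσ 1
    have c := h1 1
    simp only [pow_one] at c
    rw [c, map_mul, b] at a
    exact mul_right_cancel₀ h0 a
  have h5 : IsPrimitiveRoot ω p := by
    rw [IsPrimitiveRoot.iff_orderOf]; exact orderOf_eq_prime h2 h3
  obtain ⟨i, -, rfl⟩ := h5.eq_pow_of_pow_eq_one hζ
  rw [map_pow, h4]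

theorem card_le_pow_of_ind [Fintype G] {H : Subgroup G} [hH : H.Normal] {ψ : H → ℂ}
    (hψ : IsCharacter H ψ) (hf : ∀ g, indFun H ψ g = indFun H ψ 1 → g = 1) :
    Nat.card H ≤ (H6.charKer ψ).index ^ H.index := by
  classical
  let K : G ⧸ H → Subgroup H := fun q =>
    (H6.charKer ψ).comap (MulAut.conjNormal (q.out⁻¹ : G) : MulAut H).toMonoidHom
  have h1 : ⨅ q, K q = ⊥ := by
    rw [eq_bot_iff]
    intro h hh
    rw [Subgroup.mem_iInf] at hh
    refine Subtype.ext (hf _ ?_)
    rw [H7.indFun_one, H7.indFun_eq_sum_quotient H (H6.char_isClassFunction hψ),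
      Finset.sum_congr rfl (g := fun _ => ψ 1), Finset.sum_const, nsmul_eq_mul, Finset.card_univ,
      Subgroup.index, Nat.card_eq_fintype_card]
    intro q _
    have hm : q.out⁻¹ * h * q.out ∈ H := by simpa using hH.conj_mem _ h.2 q.out⁻¹
    rw [H7.extendByZero_of_mem _ _ hm, ← (H6.mem_charKer hψ).1 (hh q)]
    congr 1
    exact Subtype.ext (by simp)
  have h2 := Subgroup.index_iInf_le K
  rw [h1, Subgroup.index_bot, Finset.prod_congr rfl (g := fun _ => (H6.charKer ψ).index)
    (fun q _ => Subgroup.index_comap_of_surjective _ (MulEquiv.surjective _)), Finset.prod_const,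
    Finset.card_univ, ← Nat.card_eq_fintype_card] at h2
  exact h2

theorem base_arith {q a s s' m t : ℕ} (hq : 1 ≤ q) (ha : a = m + s') (hs : s' ≤ s)
    (hm : m ≤ s + t + 1) : q * a + 1 ≤ (q + 1) ^ s + q * (t + 1) * (q + 1) ^ s := by
  have h1 : 1 + s * q ≤ (q + 1) ^ s := by
    have := one_add_mul_le_pow (a := (q : ℤ)) (by omega) s
    rw [add_comm 1 (q : ℤ)] at this
    exact_mod_cast this
  have h2 : 1 + s ≤ (q + 1) ^ s := le_trans (by nlinarith) h1
  have h3 : t + 1 + s ≤ (t + 1) * (q + 1) ^ s := le_trans (by nlinarith) (Nat.mul_le_mul_left _ h2)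
  have h4 : q * a ≤ q * (t + 1 + s) + q * s := by rw [← mul_add]; exact Nat.mul_le_mul_left _ (by omega)
  have h5 := Nat.mul_le_mul_left q h3
  nlinarith

theorem pgroup_bound {q t : ℕ} (hp : (q + 1).Prime) (N : ℕ) :
    ∀ (P : Type u) [Group P] [Finite P], Nat.card P = N → ∀ a : ℕ, Nat.card P = (q + 1) ^ a →
      ∀ χ : P → ℂ, IsIrrCharacter P χ → (∀ g, χ g = χ 1 → g = 1) → ∀ f : ℕ, χ 1 = f →
      (gstab χ).index ≠ 0 → (gstab χ).index ≤ q * (q + 1) ^ t →
      q * a + 1 ≤ f + q * (t + 1) * f := by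
  induction N using Nat.strong_induction_on with
  | _ N ih =>
  intro P _ _ hN a ha χ hχ hf f hf1 h0 hd
  classical
  haveI := Fact.mk hp
  haveI := Fintype.ofFinite P
  have hq : 1 ≤ q := by have := hp.two_le; omega
  have hP : IsPGroup (q + 1) P := IsPGroup.of_card ha
  haveI := hP.isNilpotent
  obtain ⟨f', -, hf', hfd⟩ := H6.irr_one_dvd_card hχ
  have : f = f' := by exact_mod_cast hf1.symm.trans hf'
  subst this
  obtain ⟨s, -, hs⟩ := (Nat.dvd_prime_pow hp).1 (ha ▸ hfd)
  obtain ⟨A, hAn, hA, -, hC⟩ := H5.exists_scn (⊥ : Subgroup P) inferInstance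
  have hA' : ∀ a b : A, a * b = b * a := hA.is_comm.comm
  obtain ⟨θ, hθ, hne⟩ := H7.exists_irr_under A (H6.irr_isClassFunction hχ) (H6.irr_one_ne_zero hχ)
  obtain ⟨lam, rfl⟩ := H6.irr_eq_hom_of_comm hA' hθ
  let E : Subgroup P :=
    { carrier := {x | x ∈ A ∧ x ^ (q + 1) = 1}
      one_mem' := ⟨one_mem _, one_pow _⟩
      mul_mem' := fun {x y} hx hy => ⟨mul_mem hx.1 hy.1, by
        have : Commute x y := congrArg Subtype.val (hA' ⟨x, hx.1⟩ ⟨y, hy.1⟩)
        rw [this.mul_pow, hx.2, hy.2, one_mul]⟩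
      inv_mem' := fun {x} hx => ⟨inv_mem hx.1, by rw [inv_pow, hx.2, inv_one]⟩ }
  haveI hEn : E.Normal := ⟨fun x hx g => ⟨hAn.conj_mem x hx.1 g, by rw [conj_pow, hx.2]; simp⟩⟩
  have hEA : E ≤ A := fun x hx => hx.1
  let nu : E →* ℂˣ := lam.comp (Subgroup.inclusion hEA)
  have hnu := H6.isIrrCharacter_hom nu
  have hne' : classInner (fun x : E => χ x) (fun x => (nu x : ℂ)) ≠ 0 :=
    H7.inner_comp_ne_zero_of_constituent (Subgroup.inclusion hEA)
      (H6.isCharacter_restrict A (H6.irr_isCharacter hχ)) hθ hne (H6.irr_isCharacter hnu)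
      (by rw [show (fun k : E => (lam (Subgroup.inclusion hEA k) : ℂ)) = fun x => (nu x : ℂ) from
        rfl, H6.irr_inner_self hnu]; exact one_ne_zero)
  by_cases hT : H7.inertia (fun x : E => (nu x : ℂ)) = ⊤
  · -- `lam` is faithful
    have h1 := H7.clifford_of_invariant hχ hnu hT hne'
    have hl : Function.Injective lam := by
      rw [injective_iff_map_eq_one]
      intro x hx
      by_contra hx1
      obtain ⟨k, hk⟩ := hP x
      obtain ⟨j, hj1, hj2⟩ := H5.exists_pow_not_mem_pow_mem (K := ⊥) (x := (x : P))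
        (fun h => hx1 (Subtype.ext h)) (k := k) hk
      refine hj1 (hf _ ?_)
      have a1 := congrFun h1 ⟨_, ⟨A.pow_mem x.2 _, hj2⟩⟩
      have a2 := congrFun h1 1
      have a3 : nu ⟨_, ⟨A.pow_mem x.2 ((q + 1) ^ j), hj2⟩⟩ = 1 := by
        change lam (x ^ (q + 1) ^ j) = 1
        rw [map_pow, hx, one_pow]
      simp only [Pi.smul_apply, a3, map_one, OneMemClass.coe_one] at a1 a2
      rw [a1, a2]
    have hI : H7.inertia (fun x : A => (lam x : ℂ)) ≤ A := fun g hg => by
      rw [← hC]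
      intro x hx
      have := hl (Units.ext (H7.mem_inertia'.1 hg ⟨x, hx⟩))
      have h2 : g * x * g⁻¹ = x := congrArg Subtype.val this
      calc x * g = (g * x * g⁻¹) * g := by rw [h2]
        _ = g * x := by group
    obtain ⟨e, -, he, -⟩ := H7.clifford_nat hχ hθ hne
    have h2 := H7.clifford_degree hχ hθ hne
    rw [he, hf1, map_one, Units.val_one, mul_one] at h2
    have h3 : A.index ∣ (q + 1) ^ s := by
      rw [← hs]
      refine (Subgroup.index_dvd_of_le hI).trans ⟨e, ?_⟩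
      rw [mul_comm]; exact_mod_cast h2
    obtain ⟨s', hs', h4⟩ := (Nat.dvd_prime_pow hp).1 h3
    obtain ⟨m, hm⟩ := (hP.to_subgroup A).exists_card_eq
    have h5 : a = m + s' := by
      have := A.card_mul_index
      rw [hm, h4, ha, ← pow_add] at this
      exact (Nat.pow_right_injective hp.two_le this).symm
    obtain ⟨h6, h7⟩ := index_gstab_hom_le (H6.irr_isCharacter hχ) hf1 A hA' lam hne h0
    have h8 := totient_le_index lam hl h6
    rw [hs]
    refine base_arith hq h5 hs' ?_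
    rcases Nat.eq_zero_or_pos m with hm0 | hm0
    · omega
    rw [hm, Nat.totient_prime_pow hp hm0, Nat.add_sub_cancel] at h8
    have h9 : (q + 1) ^ (m - 1) * q ≤ (q + 1) ^ (s + t) * q := by
      refine (h8.trans h7).trans ?_
      rw [hs, pow_add, mul_assoc, mul_comm _ q]
      exact Nat.mul_le_mul_left _ hd
    have := (Nat.pow_le_pow_iff_right hp.one_lt).1 (Nat.le_of_mul_le_mul_right h9 hq)
    omega
  · obtain ⟨H, hTH, hHn, hHi, -⟩ := H5.exists_le_normal_index_eq hP hT
    have hEH : E ≤ H := (H7.le_inertia (H6.irr_isClassFunction hnu)).trans hTH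
    obtain ⟨ψ, hψ, hind, hin⟩ := H7.clifford_corr_surj hEH hnu hTH hχ hne'
    have hψc := H6.irr_isCharacter hψ
    have hPne : (⊤ : Subgroup P) ≠ ⊥ := fun h => hT (top_le_iff.1 (h ▸ bot_le))
    obtain ⟨z, -, hz, hzo⟩ := H5.exists_mem_center_orderOf_eq hP ⊤ hPne
    have hle : gstab χ ≤ gstab ψ := fun σ hσ => by
      have hσnu : (fun x : E => σ (nu x : ℂ)) = fun x => (nu x : ℂ) := funext fun x =>
        fix_root hp hχ hf hz hzo hσ (by
          rw [← Units.val_pow_eq_pow_val, ← map_pow, show x ^ (q + 1) = 1 from Subtype.ext x.2.2,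
            map_one, Units.val_one])
      have b1 := inner_gal σ (H7.isCharacter_res_le hEH hψc) (H6.irr_isCharacter hnu)
      rw [hσnu] at b1
      have := H7.clifford_corr_inj hEH hnu hTH (H8.isIrrCharacter_ringEquiv_comp hψ σ) hψ
        (by rw [b1, hin]; exact hne') (by rw [hin]; exact hne') (by
          funext g
          refine (H7.ringHom_indFun (σ : ℂ →+* ℂ) H ψ g).symm.trans ?_
          rw [hind]
          exact hσ g)
      exact congrFun this
    obtain ⟨φ, hφ, hφψ⟩ := H6.exists_irr_quotient hψ (H6.charKer ψ)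
      fun x hx => (H6.mem_charKer hψc).1 hx
    have hφ1 : φ 1 = ψ 1 := hφψ 1
    have hgs : gstab φ = gstab ψ := by
      ext σ
      constructor
      · intro h g; rw [← hφψ]; exact h _
      · intro h g
        obtain ⟨g, rfl⟩ := QuotientGroup.mk_surjective g
        rw [hφψ]; exact h _
    obtain ⟨b, hb⟩ := ((hP.to_subgroup H).to_quotient (H6.charKer ψ)).exists_card_eq
    obtain ⟨f', hf'⟩ := H6.char_one_nat hψc
    have hff : f = (q + 1) * f' := by
      have := H7.indFun_one H ψ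
      rw [hind, hf1, hHi, hf'] at this
      exact_mod_cast this
    have hdv := Subgroup.index_dvd_of_le hle
    have hcH : Nat.card H * (q + 1) = (q + 1) ^ a := by rw [← ha, ← hHi, H.card_mul_index]
    have hlt : Nat.card (H ⧸ H6.charKer ψ) < N := by
      have c1 : Nat.card (H ⧸ H6.charKer ψ) ≤ Nat.card H :=
        Nat.le_of_dvd Nat.card_pos (Subgroup.card_quotient_dvd_card _)
      have c2 : 0 < Nat.card H := Nat.card_pos
      rw [← hN, ha, ← hcH]
      nlinarith
    have hIH := ih _ hlt (H ⧸ H6.charKer ψ) rfl b hb φ hφ (fun g hg => by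
      obtain ⟨g, rfl⟩ := QuotientGroup.mk_surjective g
      rw [hφψ, hφ1] at hg
      exact (QuotientGroup.eq_one_iff g).2 ((H6.mem_charKer hψc).2 hg)) f' (hφ1.trans hf')
      (hgs ▸ ne_zero_of_dvd_ne_zero h0 hdv)
      (hgs ▸ (Nat.le_of_dvd (Nat.pos_of_ne_zero h0) hdv).trans hd)
    have hc := card_le_pow_of_ind hψc (hind ▸ hf)
    rw [Subgroup.index, hb, hHi, ← pow_mul] at hc
    have hab : a ≤ b * (q + 1) + 1 := by
      rw [← Nat.pow_le_pow_iff_right hp.one_lt, ← hcH, pow_succ]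
      exact Nat.mul_le_mul_right _ hc
    have c1 := Nat.mul_le_mul_left q hab
    have c2 := Nat.mul_le_mul_left (q + 1) hIH
    rw [hff]
    nlinarith

end H35L
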