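import Mathlib
import Cfsg.Agent.Base
import Cfsg.Agent.Lib.Lin35.Schur
import Cfsg.Agent.Lib.Char.ExtDeg
import Cfsg.Agent.Lib.Core.HallSZ
import Cfsg.Agent.Lib.Comp.PConstrained

/-! `p`-rational characters above a normal `p'`-subgroup, and the `p`-solvable Schur bound. -/

set_option autoImplicit false
set_option linter.style.haveILetI false

namespace H35L
open Cfsg
open scoped ComplexConjugate commutatorElement Pointwise

variable {G : Type*} [Group G]

theorem add_eq_iff [Finite G] {χ ψ : G → ℂ} (hχ : IsCharacter G χ) (hψ : IsCharacter G ψ) {g : G}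
    (h : (χ + ψ) g = (χ + ψ) 1) : χ g = χ 1 ∧ ψ g = ψ 1 := by
  obtain ⟨m, hm⟩ := H6.char_one_nat hχ
  obtain ⟨n, hn⟩ := H6.char_one_nat hψ
  have h1 := H6.char_norm_le hχ g
  have h2 := H6.char_norm_le hψ g
  rw [hm, Complex.norm_natCast] at h1
  rw [hn, Complex.norm_natCast] at h2
  simp only [Pi.add_apply, hm, hn] at h ⊢
  have h3 := congrArg Complex.re h
  simp only [Complex.add_re, Complex.natCast_re] at h3
  have h4 := (Complex.re_le_norm (χ g)).trans h1
  have h5 := (Complex.re_le_norm (ψ g)).trans h2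
  have key : ∀ (z : ℂ) (k : ℕ), ‖z‖ ≤ k → z.re = k → z = k := fun z k a b => by
    have := Complex.sq_norm z
    rw [Complex.normSq_apply] at this
    apply Complex.ext
    · simpa using b
    · have h0 : z.im * z.im ≤ 0 := by nlinarith [norm_nonneg z]
      simpa using mul_self_eq_zero.1 (le_antisymm h0 (mul_self_nonneg _))
  exact ⟨key _ _ h1 (by linarith), key _ _ h2 (by linarith)⟩

theorem mem_of_pow_mem {H : Subgroup G} {p k j : ℕ} {x : G} (hx : x ^ p ^ k = 1)
    (hj : j.Coprime p) (h : x ^ j ∈ H) : x ∈ H := by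
  have h1 : (j.gcd (p ^ k)) = 1 := hj.pow_right k
  have h2 := Nat.gcd_eq_gcd_ab j (p ^ k)
  have h3 : x = (x ^ j) ^ Nat.gcdA j (p ^ k) * (x ^ p ^ k) ^ Nat.gcdB j (p ^ k) := by
    rw [← zpow_natCast, ← zpow_natCast, ← zpow_mul, ← zpow_mul, ← zpow_add, ← h2, h1]; simp
  rw [h3, hx, one_zpow, mul_one]
  exact H.zpow_mem h _

/-- The canonical extension is rational on `p`-elements. -/
theorem canonical_pow [Finite G] {N : Subgroup G} [N.Normal] {p a : ℕ} (hp : p.Prime)
    (hN : (Nat.card N).Coprime p) (hi : N.index = p ^ a) {χ : G → ℂ} (hχ : IsCharacter G χ)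
    (hχN : IsIrrCharacter N fun g : N => χ g) (hdet : (detOrder χ).Coprime p)
    {s : G} {l : ℕ} (hs : s ^ p ^ l = 1) {m : ℕ} (hm : m.Coprime p) : χ (s ^ m) = χ s := by
  have hcop : (Nat.card N).Coprime (p ^ (l + 1)) := hN.pow_right _
  obtain ⟨k, hk1, hk2⟩ := Nat.chineseRemainder hcop 1 m
  have hkp : k.Coprime p := by
    have : k.Coprime (p ^ (l + 1)) := hk2.gcd_eq.trans (hm.pow_right _)
    exact (Nat.coprime_pow_right_iff (Nat.succ_pos l) _ _).1 this
  have hk : k.Coprime (Nat.card G) := by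
    rw [← N.card_mul_index, hi]
    exact Nat.Coprime.mul_right ((hk1.gcd_eq).trans (by simp)) (hkp.pow_right a)
  obtain ⟨σ, hσ⟩ := H8.exists_ringEquiv_character_pow hk
  have hσχ := hσ χ (Or.inr hχ)
  have hpow : ∀ g ∈ N, g ^ k = g := fun g hg => by
    rw [(pow_eq_pow_iff_modEq (x := g)).2 (hk1.of_dvd (N.orderOf_dvd_natCard hg)), pow_one]
  have hχ' : IsCharacter G fun g => χ (g ^ k) := by
    simp only [← hσχ]
    exact H8.isCharacter_ringHom_comp hχ (σ : ℂ →+* ℂ)
  obtain ⟨B, hB1, hB2⟩ := H31.exists_hom_of_two_extensions N hχN hχ hχ' (fun _ => rfl)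
    (fun g => by rw [hpow _ g.2])
  obtain ⟨d, -, hd, hdG⟩ := H6.irr_one_dvd_card hχN
  set S := Subgroup.zpowers s with hS
  have hSp : ∀ t ∈ S, orderOf t ∣ p ^ l := by
    rintro t ⟨i, rfl⟩
    exact orderOf_dvd_of_pow_eq_one (by rw [← zpow_natCast, ← zpow_mul, mul_comm, zpow_mul,
      zpow_natCast, hs, one_zpow])
  have hdet1 : ∀ t ∈ S, H31.detHom χ t = 1 := fun t ht => by
    rw [← orderOf_eq_one_iff]
    refine Nat.eq_one_of_dvd_coprimes (hdet.pow_right l) ?_ ((orderOf_map_dvd _ t).trans (hSp t ht))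
    rw [H31.detOrder_eq, orderOf_dvd_iff_pow_eq_one, ← MonoidHom.pow_apply, pow_orderOf_eq_one]
    rfl
  have hBS : ∀ t ∈ S, B t = 1 := fun t ht => by
    letI : CommGroup S := IsCyclic.commGroup
    have h1 := H31.detHom_hom_mul hχ (d := d) hd B t
    rw [hdet1 t ht, mul_one, ← funext hB2,
      ← H31.detHom_res S hχ' ⟨t, ht⟩] at h1
    have h2 := congrArg (fun f => f ⟨t, ht⟩)
      (H31.detHom_comp (S.subtype.comp (powMonoidHom k)) hχ)
    simp only [MonoidHom.comp_apply, powMonoidHom_apply, Subgroup.subtype_apply,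
      SubgroupClass.coe_pow] at h2
    rw [h2, hdet1 _ (S.pow_mem ht k)] at h1
    rw [← orderOf_eq_one_iff]
    exact Nat.eq_one_of_dvd_coprimes ((hN.pow_right l).coprime_dvd_left hdG)
      (orderOf_dvd_of_pow_eq_one h1.symm) ((orderOf_map_dvd _ t).trans (hSp t ht))
  have := hB2 s
  rw [hBS s (Subgroup.mem_zpowers s), pow_eq_pow_of_modEq hk2
    (by rw [pow_succ, pow_mul, hs, one_pow])] at this
  simpa using this

/-- rationality on `p`-elements -/
def RatP (p : ℕ) (χ : G → ℂ) : Prop :=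
  ∀ (x : G) (k j : ℕ), x ^ p ^ k = 1 → j.Coprime p → χ (x ^ j) = χ x

theorem RatP.indFun [Fintype G] {p : ℕ} {T : Subgroup G} {η : T → ℂ} (h : RatP p η) :
    RatP p (indFun T η) := by
  intro x k j hx hj
  rw [H7.indFun_apply, H7.indFun_apply]
  congr 1
  refine Finset.sum_congr rfl fun g _ => ?_
  have e : g⁻¹ * x ^ j * g = (g⁻¹ * x * g) ^ j := by
    have := conj_pow (a := g⁻¹) (b := x) (i := j)
    simpa using this.symm
  have hy : (g⁻¹ * x * g) ^ p ^ k = 1 := by
    have := conj_pow (a := g⁻¹) (b := x) (i := p ^ k)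
    simpa [hx] using this
  rw [e]
  by_cases hm : g⁻¹ * x * g ∈ T
  · rw [H7.extendByZero_of_mem _ _ hm, H7.extendByZero_of_mem _ _ (T.pow_mem hm j)]
    exact h ⟨_, hm⟩ k j (Subtype.ext hy) hj
  · rw [H7.extendByZero_of_not_mem _ _ hm,
      H7.extendByZero_of_not_mem _ _ fun h' => hm (mem_of_pow_mem hy hj h')]

/-- Replace a character by a `p`-rational one with the same constituents on `N`. -/
theorem exists_ratP [Finite G] {N : Subgroup G} [hN' : N.Normal] {p a : ℕ} (hp : p.Prime)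
    (hN : (Nat.card N).Coprime p) (hi : N.index = p ^ a) {χ : G → ℂ} (hχ : IsCharacter G χ) :
    ∃ ψ : G → ℂ, IsCharacter G χ ∧ IsCharacter G ψ ∧ RatP p ψ ∧ (ψ 1).re ≤ (χ 1).re ∧
      ∀ h ∈ N, ψ h = ψ 1 → χ h = χ 1 := by
  classical
  haveI := Fintype.ofFinite G
  refine H6.char_induction (P := fun χ => ∃ ψ : G → ℂ, IsCharacter G χ ∧ IsCharacter G ψ ∧
    RatP p ψ ∧ (ψ 1).re ≤ (χ 1).re ∧ ∀ h ∈ N, ψ h = ψ 1 → χ h = χ 1)
    ⟨0, H6.isCharacter_zero, H6.isCharacter_zero, fun _ _ _ _ _ => rfl, le_rfl,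
      fun _ _ _ => rfl⟩ ?_ ?_ hχ
  · intro ξ hξ
    obtain ⟨φ, hφ, hne⟩ := H7.exists_irr_under N (H6.irr_isClassFunction hξ) (H6.irr_one_ne_zero hξ)
    set T := H7.inertia φ with hT
    have hNT : N ≤ T := H7.le_inertia (H6.irr_isClassFunction hφ)
    have hcard : Nat.card (N.subgroupOf T) = Nat.card N :=
      Nat.card_congr (Subgroup.subgroupOfEquivOfLe hNT).toEquiv
    obtain ⟨b, -, hb⟩ := (Nat.dvd_prime_pow hp).1
      (hi ▸ (Subgroup.relIndex_dvd_index_of_le hNT) : (N.subgroupOf T).index ∣ p ^ a)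
    have hφ' := H7.isIrr_subgroupOf hNT hφ
    obtain ⟨d, -, hd, hdd⟩ := H6.irr_one_dvd_card hφ'
    have hdo := H31.detOrder_dvd_card
      (fun x : N.subgroupOf T => φ ⟨(x : T), Subgroup.mem_subgroupOf.mp x.2⟩)
    rw [hcard] at hdd hdo
    obtain ⟨η, ⟨hη, hηN, hηd⟩, -⟩ := H31.exists_canonical_ext (N.subgroupOf T) hφ'
      (H31.invariant_subgroupOf le_rfl) hd (by
        rw [hb]
        exact (Nat.Coprime.mul_left (hN.coprime_dvd_left hdo)
          (hN.coprime_dvd_left hdd)).symm.pow_left b)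
    have hrat : RatP p η := fun x k j hx hj =>
      canonical_pow hp (hcard ▸ hN) hb (H6.irr_isCharacter hη) (by rw [funext hηN]; exact hφ')
        (hηd ▸ hN.coprime_dvd_left hdo) hx hj
    have hres : (fun n : N => η ⟨n, hNT n.2⟩) = φ := funext fun n => hηN ⟨⟨n, hNT n.2⟩, n.2⟩
    have hin : classInner (fun n : N => η ⟨n, hNT n.2⟩) φ = 1 := by
      rw [hres, H6.irr_inner_self hφ]
    have hψ := H7.clifford_corr_isIrr hNT hφ le_rfl hη (hin ▸ one_ne_zero)
    have hm := H7.clifford_corr_mult hNT hφ le_rfl hη (hin ▸ one_ne_zero)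
    rw [hin] at hm
    have h1 := H7.clifford hψ hφ (hm ▸ one_ne_zero)
    rw [hm, one_smul] at h1
    obtain ⟨e, he, -, h2⟩ := H7.clifford_nat hξ hφ hne
    have h3 : ∀ n : N, ξ n = e * indFun T η n := fun n => by
      rw [congrFun h2 n, congrFun h1 n]; rfl
    refine ⟨indFun T η, H6.irr_isCharacter hξ, H6.irr_isCharacter hψ, hrat.indFun, ?_,
      fun h hh h' => ?_⟩
    · obtain ⟨m, hm⟩ := H6.char_one_nat (H6.irr_isCharacter hψ)
      have := h3 1
      simp only [OneMemClass.coe_one] at this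
      rw [this, hm]
      simp only [Complex.natCast_re, Complex.mul_re, Complex.natCast_im, mul_zero, sub_zero]
      have : (1 : ℝ) ≤ e := by exact_mod_cast he
      nlinarith [Nat.cast_nonneg (α := ℝ) m]
    · have h4 := h3 1
      have h5 := h3 ⟨h, hh⟩
      simp only [OneMemClass.coe_one] at h4 h5
      rw [h4, h5, h']
  · rintro χ₁ χ₂ ⟨ψ₁, a0, a1, a2, a3, a4⟩ ⟨ψ₂, b0, b1, b2, b3, b4⟩
    refine ⟨ψ₁ + ψ₂, H6.isCharacter_add a0 b0, H6.isCharacter_add a1 b1,
      fun x k j hx hj => ?_, ?_, fun h hh h' => ?_⟩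
    · simp only [Pi.add_apply, a2 x k j hx hj, b2 x k j hx hj]
    · simp only [Pi.add_apply, Complex.add_re]; linarith
    · obtain ⟨c1, c2⟩ := add_eq_iff a1 b1 h'
      simp only [Pi.add_apply, a4 h hh c1, b4 h hh c2]

/-- The Schur bound for the action of a `p`-group on a normal `p'`-subgroup. -/
theorem exists_centralizing [Finite G] {N R : Subgroup G} [N.Normal] {p : ℕ} (hp : p.Prime)
    (hN : (Nat.card N).Coprime p) (hR : IsPGroup p R) {χ : G → ℂ} (hχ : IsCharacter G χ)
    (hf : ∀ g ∈ N, χ g = χ 1 → g = 1) {n : ℕ} (hn : χ 1 = n) :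
    ∃ K : Subgroup R, K.index.factorization p ≤
      ∑ i ∈ Finset.range (n + 1), n / ((p - 1) * p ^ i) ∧
      ∀ x ∈ K, ∀ h ∈ N, (x : G) * h = h * x := by
  haveI := Fact.mk hp
  set Γ := N ⊔ R with hΓ
  have hcard : Nat.card (N.subgroupOf Γ) = Nat.card N :=
    Nat.card_congr (Subgroup.subgroupOfEquivOfLe le_sup_left).toEquiv
  obtain ⟨b, hb⟩ := hR.exists_card_eq
  obtain ⟨a, -, ha⟩ := (Nat.dvd_prime_pow hp).1 (show (N.subgroupOf Γ).index ∣ p ^ b by
    rw [← hb]
    change N.relIndex (N ⊔ R) ∣ _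
    rw [Subgroup.relIndex_sup_left]
    exact Subgroup.index_dvd_card _)
  obtain ⟨ψ, -, h1, h2, h3, h4⟩ := exists_ratP hp (hcard ▸ hN) ha (H6.isCharacter_restrict Γ hχ)
  obtain ⟨m, hm⟩ := H6.char_one_nat h1
  have hmn : m ≤ n := by
    simp only [OneMemClass.coe_one, hm, hn, Complex.natCast_re] at h3
    exact_mod_cast h3
  let ι : R →* Γ := Subgroup.inclusion le_sup_right
  have hψ := H6.isCharacter_comp ι h1
  refine ⟨H6.charKer fun x => ψ (ι x), (schur_bound hp hR hψ (fun x j hj => ?_) (n := m)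
    (by simp [hm])).trans (bound_mono p hmn), fun x hx h hh => ?_⟩
  · obtain ⟨k, hk⟩ := hR x
    rw [map_pow]
    exact h2 _ k j (by rw [← map_pow, hk, map_one]) hj
  · rw [H6.mem_charKer hψ, map_one, ← H6.mem_charKer h1] at hx
    let h' : Γ := ⟨h, le_sup_left (a := N) hh⟩
    have c1 : ⁅ι x, h'⁆ ∈ H6.charKer ψ := by
      rw [commutatorElement_def, mul_assoc, mul_assoc, ← mul_assoc h']
      exact Subgroup.mul_mem _ hx ((H6.charKer_normal ψ).conj_mem _ (Subgroup.inv_mem _ hx) h')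
    have c2 : ⁅ι x, h'⁆ ∈ N.subgroupOf Γ := by
      rw [commutatorElement_def]
      exact Subgroup.mul_mem _ (Subgroup.Normal.conj_mem inferInstance h' hh _)
        (Subgroup.inv_mem _ hh)
    have c3 := hf _ c2 (h4 _ c2 ((H6.mem_charKer h1).1 c1))
    exact commutatorElement_eq_one_iff_mul_comm.1 c3

/-- Frattini argument for a complement to a normal solvable Hall subgroup of `M`. -/
theorem exists_complement_frattini [Finite G] {O M : Subgroup G} [O.Normal] [hM : M.Normal]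
    (hOM : O ≤ M) (hc : (Nat.card O).Coprime (O.relIndex M)) [Group.IsSolvable O] :
    ∃ H : Subgroup G, Nat.card H = O.relIndex M ∧ (∀ m ∈ M, ∃ o ∈ O, ∃ h ∈ H, m = o * h) ∧
      ∀ g : G, ∃ o ∈ O, o⁻¹ * g ∈ Subgroup.normalizer (H : Set G) := by
  have hcard : Nat.card (O.subgroupOf M) = Nat.card O :=
    Nat.card_congr (Subgroup.subgroupOfEquivOfLe hOM).toEquiv
  have hc' : (Nat.card (O.subgroupOf M)).Coprime (O.subgroupOf M).index := hcard ▸ hc
  obtain ⟨H, hH⟩ := Subgroup.exists_right_complement'_of_coprime hc'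
  have hs : Group.IsSolvable (O.subgroupOf M) :=
    Group.isSolvable_of_isSolvable_injective (f := (Subgroup.subgroupOfEquivOfLe hOM).toMonoidHom)
      (Subgroup.subgroupOfEquivOfLe hOM).injective
  refine ⟨H.map M.subtype, ?_, fun m hm => ?_, fun g => ?_⟩
  · rw [Subgroup.card_map_of_injective M.subtype_injective]
    exact hH.symm.index_eq_card.symm
  · obtain ⟨⟨o, h⟩, e⟩ := hH.2 ⟨m, hm⟩
    exact ⟨_, o.2, _, ⟨h, h.2, rfl⟩, (congrArg Subtype.val e).symm⟩
  · have hK : Subgroup.IsComplement' (O.subgroupOf M)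
        (H.map (MulAut.conjNormal g : MulAut M).toMonoidHom) := by
      have hcm : Nat.card (H.map (MulAut.conjNormal g : MulAut M).toMonoidHom) = Nat.card H :=
        Subgroup.card_map_of_injective (MulAut.conjNormal g : MulAut M).injective
      refine Subgroup.isComplement'_of_coprime ?_ ?_
      · rw [hcm]
        exact hH.card_mul_card
      · rw [hcm, ← hH.symm.index_eq_card]
        exact hc'
    obtain ⟨o, ho, e⟩ := H3.complement_conj _ hc' (Or.inl hs) _ _ hH hK
    refine ⟨o, ho, Subgroup.mem_normalizer_fintype fun _ hx => ?_⟩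
    obtain ⟨x, hx, rfl⟩ := hx
    have : MulAut.conjNormal g x ∈ MulAut.conj o • H := e ▸ ⟨x, hx, rfl⟩
    obtain ⟨y, hy, e2⟩ := this
    refine ⟨y, hy, ?_⟩
    have e3 := congrArg Subtype.val e2
    simp only [MulDistribMulAction.toMonoidEnd_apply, MulDistribMulAction.toMonoidHom_apply,
      MulAut.smul_def, MulAut.conj_apply, Subgroup.coe_mul, InvMemClass.coe_inv,
      MulAut.conjNormal_apply] at e3
    simp only [Subgroup.coe_subtype]
    calc (y : G) = (o : G)⁻¹ * (o * y * (o : G)⁻¹) * o := by group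
      _ = _ := by rw [e3]; group

theorem psolv_bound [Finite G] {χ : G → ℂ} (hχ : IsCharacter G χ)
    (hf : ∀ g, χ g = χ 1 → g = 1) {n : ℕ} (hn : χ 1 = n) {p : ℕ} (hp : p.Prime)
    (hs : IsPSolvable p G) : (pCore p G).index.factorization p ≤
      ∑ i ∈ Finset.range (n + 1), n / ((p - 1) * p ^ i) := by
  haveI := Fact.mk hp
  set O := pCore p G with hO
  let π := QuotientGroup.mk' O
  set M := (pPrimeCore p (G ⧸ O)).comap π with hM
  have hOM : O ≤ M := fun x hx => by
    change π x ∈ pPrimeCore p (G ⧸ O)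
    rw [show π x = 1 from (QuotientGroup.eq_one_iff x).2 hx]; exact one_mem _
  have hrel : O.relIndex M = Nat.card (pPrimeCore p (G ⧸ O)) := by
    conv_lhs => rw [← QuotientGroup.ker_mk' O, ← MonoidHom.comap_bot, hM, Subgroup.relIndex_comap,
      Subgroup.map_comap_eq_self_of_surjective (QuotientGroup.mk'_surjective O),
      Subgroup.relIndex_bot_left]
  have hOp : IsPGroup p O := H1.isPGroup_pCore
  haveI : Group.IsSolvable O := by
    haveI := hOp.isNilpotent
    infer_instance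
  obtain ⟨H, h1, h2, h3⟩ := exists_complement_frattini hOM (by
    obtain ⟨k, hk⟩ := hOp.exists_card_eq
    rw [hrel, hk]
    exact (H1.coprime_card_pPrimeCore.symm).pow_left k)
  set X := Subgroup.normalizer (H : Set G) with hX
  obtain ⟨P⟩ : Nonempty (Sylow p X) := inferInstance
  have hHX : H ≤ X := Subgroup.le_normalizer
  have hcard : Nat.card (H.subgroupOf X) = Nat.card H :=
    Nat.card_congr (Subgroup.subgroupOfEquivOfLe hHX).toEquiv
  obtain ⟨K, hK1, hK2⟩ := exists_centralizing (N := H.subgroupOf X) hp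
    (by rw [hcard, h1, hrel]; exact H1.coprime_card_pPrimeCore) P.isPGroup'
    (H6.isCharacter_restrict X hχ) (fun g _ h => Subtype.ext (hf _ h)) (n := n) hn
  let f : X →* G ⧸ O := π.comp X.subtype
  have hfs : Function.Surjective f := fun q => by
    obtain ⟨g, rfl⟩ := QuotientGroup.mk'_surjective O q
    obtain ⟨o, ho, hg⟩ := h3 g
    refine ⟨⟨_, hg⟩, ?_⟩
    change π (o⁻¹ * g) = π g
    rw [map_mul, map_inv, show π o = 1 from (QuotientGroup.eq_one_iff o).2 ho]; simp
  have hker : K ≤ (f.comp (P : Subgroup X).subtype).ker := fun x hx => by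
    have hc : f x ∈ Subgroup.centralizer (pPrimeCore p (G ⧸ O) : Set (G ⧸ O)) := by
      intro q hq
      obtain ⟨m, rfl⟩ := QuotientGroup.mk'_surjective O q
      obtain ⟨o, ho, h, hh, rfl⟩ := h2 m hq
      have e := congrArg Subtype.val (hK2 x hx ⟨h, hHX hh⟩ hh)
      simp only [Subgroup.coe_mul] at e
      change π (o * h) * π x = π x * π (o * h)
      rw [map_mul, show π o = 1 from (QuotientGroup.eq_one_iff o).2 ho, one_mul, ← map_mul,
        ← map_mul, e]
    have hc2 := H23.centralizer_pPrimeCore_le_of_isPSolvable hs (QuotientGroup.mk'_surjective O)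
      H1.pCore_quotient_pCore hc
    obtain ⟨k, hk⟩ := P.isPGroup' x
    rw [MonoidHom.mem_ker, ← orderOf_eq_one_iff]
    refine Nat.eq_one_of_dvd_coprimes (H1.coprime_card_pPrimeCore.pow_right k)
      (Subgroup.orderOf_dvd_natCard _ hc2) (orderOf_dvd_of_pow_eq_one ?_)
    rw [← map_pow, hk, map_one]
  refine le_trans ?_ hK1
  have h4 := Subgroup.index_dvd_of_le hker
  rw [Subgroup.index_ker, MonoidHom.range_comp, Subgroup.range_subtype] at h4
  have h5 := (P.mapSurjective hfs).card_eq_multiplicity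
  rw [Sylow.coe_mapSurjective] at h5
  rw [h5] at h4
  exact (hp.pow_dvd_iff_le_factorization Subgroup.index_ne_zero_of_finite).1 h4

end H35L
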